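import Cfsg.Agent.Chev.Parabolic
import Cfsg.Agent.Chev.Orders

/-! The order of a standard parabolic subgroup through its Bruhat cells. -/

set_option autoImplicit false

universe u

namespace Cfsg.Agent.KnownA.ReeCent

open Cfsg.Lie Cfsg.Agent.Chev
open scoped Matrix MatrixGroups

variable {D : ChevalleyDatum} {F : Type u} [Field F] (C : Cert.{u} D)
include C

/-- Every element of a parabolic subgroup lies in a cell of the parabolic Weyl group. -/
theorem exists_cell_parabolic [Finite F] {M : CoxeterMatrix (Fin D.rank)} (hM : CoxOK D M) {J : List ℕ}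
    {g : GL D.Idx F} (hg : g ∈ D.parabolicSubgroup F {j | j ∈ J}) :
    ∃ L : List (Fin D.rank), (∀ i ∈ L, (i : ℕ) ∈ J) ∧ InCell D F (C.nWordElt F (L.map Fin.val)) g := by
  set S : Set (GL D.Idx F) := {g | ∃ L : List (Fin D.rank), (∀ i ∈ L, (i : ℕ) ∈ J) ∧
    InCell D F (C.nWordElt F (L.map Fin.val)) g}
  have hB : ∀ b ∈ D.borelSubgroup F, ∀ g ∈ S, b * g ∈ S := by
    rintro b hb g ⟨L, hL, hc⟩
    exact ⟨L, hL, by simpa using hc.mul hb (one_mem _)⟩
  have hn : ∀ i : Fin D.rank, (i : ℕ) ∈ J → ∀ g ∈ S, C.nu (D.simple i) 1 * g ∈ S := by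
    rintro i hi g ⟨L, hL, x, hx, y, hy, rfl⟩
    obtain ⟨b₁, hb₁, b₂, hb₂, e | e⟩ :=
      C.bn_mul hM i.isLt hx (C.nWordElt_mem (F := F) (C.fin_word_lt L))
    · refine ⟨i :: L, fun j hj => ?_, b₁, hb₁, b₂ * y, mul_mem hb₂ hy, ?_⟩
      · rcases List.mem_cons.mp hj with rfl | hj
        · exact hi
        · exact hL j hj
      · rw [List.map_cons, C.nWordElt_cons, ← mul_assoc, ← mul_assoc, e]
        group
    · exact ⟨L, hL, b₁, hb₁, b₂ * y, mul_mem hb₂ hy, by rw [← mul_assoc, ← mul_assoc, e]; group⟩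
  have h1 : (1 : GL D.Idx F) ∈ S :=
    ⟨[], by simp, 1, one_mem _, 1, one_mem _, by simp [Cert.nWordElt]⟩
  let T : Submonoid (GL D.Idx F) :=
    { carrier := {x | ∀ g ∈ S, x * g ∈ S}
      one_mem' := fun g hg => by rwa [one_mul]
      mul_mem' := fun {x y} hx hy g hg => by rw [mul_assoc]; exact hx _ (hy _ hg) }
  let P : Subgroup (GL D.Idx F) :=
    { T with
      inv_mem' := fun {x} hx => by
        rw [show x⁻¹ = x ^ (orderOf x - 1) from inv_eq_of_mul_eq_one_right
          (by rw [← pow_succ', Nat.sub_add_cancel (orderOf_pos x), pow_orderOf_eq_one])]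
        exact pow_mem (S := T) hx _ }
  have hle : D.parabolicSubgroup F {j | j ∈ J} ≤ P := by
    refine C.parabolic_le (fun b hb => hB b hb) fun j hj hjJ => ?_
    exact hn ⟨j, hj⟩ hjJ
  have hS : g ∈ S := by simpa using hle hg 1 h1
  exact hS

/-- The order of a parabolic subgroup. -/
theorem natCard_parabolic [Fintype F] {M : CoxeterMatrix (Fin D.rank)} (hM : CoxOK D M) (J : List ℕ) :
    Nat.card (D.parabolicSubgroup F {j | j ∈ J}) =
      Nat.card (D.borelSubgroup F) * C.wPoly J (Fintype.card F) := by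
  classical
  let W := C.WSub J
  have hW : ∀ σ : W, ∃ L : List (Fin D.rank), (∀ i ∈ L, (i : ℕ) ∈ J) ∧
      (σ : Equiv.Perm (Fin D.nroots)) = (L.map C.reflPerm).prod := fun σ => C.wsub_exists_word σ.2
  choose Lw hLJ hLw using hW
  let nn : W → GL D.Idx F := fun σ => C.nWordElt F ((Lw σ).map Fin.val)
  have hnn : ∀ σ, nn σ ∈ D.monomialSubgroup F := fun σ => C.nWordElt_mem (C.fin_word_lt _)
  have hspan : ∀ σ, spanGroup D F (Inverts D F (nn σ)) ≤ D.borelSubgroup F :=
    fun σ => le_trans (C.span_mono fun r hr => hr.1) C.pos_le_borel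
  have hnP : ∀ σ, nn σ ∈ D.parabolicSubgroup F {j | j ∈ J} := fun σ => by
    have key : ∀ L : List (Fin D.rank), (∀ i ∈ L, (i : ℕ) ∈ J) →
        C.nWordElt F (L.map Fin.val) ∈ D.parabolicSubgroup F {j | j ∈ J} := by
      intro L
      induction L with
      | nil => intro _; simp [Cert.nWordElt]
      | cons i L ih =>
        intro h
        rw [List.map_cons, C.nWordElt_cons]
        exact mul_mem (C.nu_mem_parabolic i.isLt (h i List.mem_cons_self))
          (ih fun j hj => h j (List.mem_cons_of_mem _ hj))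
    exact key _ (hLJ σ)
  let f : (Σ σ : W, ↥(D.borelSubgroup F) × ↥(spanGroup D F (Inverts D F (nn σ)))) →
      ↥(D.parabolicSubgroup F {j | j ∈ J}) :=
    fun p => ⟨p.2.1 * nn p.1 * p.2.2, mul_mem (mul_mem (C.borel_le_parabolic _ p.2.1.2) (hnP _))
      (C.borel_le_parabolic _ (hspan _ p.2.2.2))⟩
  have hf : Function.Bijective f := by
    constructor
    · rintro ⟨σ, b, u⟩ ⟨σ', b', u'⟩ e
      have e' : (b : GL D.Idx F) * nn σ * u = b' * nn σ' * u' := congrArg Subtype.val e
      have hcell : InCell D F (nn σ) (nn σ') :=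
        ⟨(b' : GL D.Idx F)⁻¹ * b, mul_mem (inv_mem b'.2) b.2, (u : GL D.Idx F) * (u' : GL D.Idx F)⁻¹,
          mul_mem (hspan σ u.2) (inv_mem (hspan σ' u'.2)), by
          calc nn σ' = (b' : GL D.Idx F)⁻¹ * ((b' : GL D.Idx F) * nn σ' * u') * (u' : GL D.Idx F)⁻¹ := by group
            _ = _ := by rw [← e']; group⟩
      have hH := C.inCell_unique hM (hnn σ) (hnn σ') hcell
      have hσ : σ = σ' := Subtype.ext (by rw [hLw σ, hLw σ']; exact C.perm_eq_of_diagonal hH)
      subst hσ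
      obtain ⟨hb, hu⟩ := C.canonical_unique b.2 b'.2 u.2 u'.2 e'
      rw [Subtype.ext hb, Subtype.ext hu]
    · rintro ⟨g, hg⟩
      obtain ⟨L, hL, hcell⟩ := exists_cell_parabolic C hM hg
      have hσ : (L.map C.reflPerm).prod ∈ W := Subgroup.list_prod_mem _ fun x hx => by
        obtain ⟨i, hi, rfl⟩ := List.mem_map.mp hx
        exact C.reflPerm_mem (hL i hi)
      set σ : W := ⟨_, hσ⟩
      have hd := C.nWordElt_congr (F := F) hM (hLw σ).symm
      have hcell' : InCell D F (nn σ) g := by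
        obtain ⟨x, hx, y, hy, e⟩ := hcell
        refine ⟨x, hx, ((nn σ)⁻¹ * C.nWordElt F (L.map Fin.val)) * y,
          mul_mem (C.diagonal_le_borel hd) hy, ?_⟩
        rw [e]; group
      obtain ⟨b, hb, u, hu, e⟩ := C.exists_canonical hM (hnn σ) hcell'
      exact ⟨⟨σ, ⟨b, hb⟩, ⟨u, hu⟩⟩, Subtype.ext e.symm⟩
  rw [← Nat.card_congr (Equiv.ofBijective f hf), Nat.card_sigma, Cert.wPoly, Finset.mul_sum,
    Finset.sum_subtype (Finset.univ.filter (· ∈ C.WSub J)) (p := fun σ => σ ∈ C.WSub J) (fun σ => by simp)]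
  refine Finset.sum_congr rfl fun σ _ => ?_
  rw [Nat.card_prod, C.natCard_span (C.closedSet_inverts _)]
  refine congrArg _ (congrArg _ (congrArg Finset.card ?_))
  ext r
  rw [Finset.mem_filter, C.inverts_nWordElt, ← hLw σ]
  simp

end Cfsg.Agent.KnownA.ReeCent
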