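import Cfsg.Agent.KnownA.ReeCent.Weight
import Cfsg.Agent.KnownA.ReeCent.ParCard
import Cfsg.Agent.KnownA.Steinberg.Chev
import Cfsg.Agent.Chev.OrdersByType
import Cfsg.Agent.Chev.ReeF4Bruhat

/-! The centraliser of an involution in the large Ree group lies in a parabolic subgroup stable under the twist. -/

set_option autoImplicit false

universe u

namespace Cfsg.Agent.KnownA.ReeCent

open Cfsg.Lie Cfsg.Agent.Chev Cfsg.Agent.Chev.Ree4
open Cfsg.Agent.Chars2.SplitBN.BorelTits (ev)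
open scoped Matrix MatrixGroups

/-- The length of a root of F₄. -/
noncomputable def lenF (r : ℕ) : ℝ := if sF4.isLong r then Real.sqrt 2 else 1

theorem lenF_sq_table : ∀ r < 48, ∀ i < 4,
    (if sF4.isLong r then (2 : ℤ) else 1) * tabF4.coefI (sF4.barF r) i =
      (if sF4.isLong (chevF4.simple (3 - i)) then (2 : ℤ) else 1) * tabF4.coefI r (3 - i) := by
  decide +kernel

theorem long_refl : ∀ i < 4, ∀ r < 48, sF4.isLong (chevF4.reflectRoot i r) = sF4.isLong r := by
  decide +kernel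

theorem long_simple : ∀ i < 4,
    sF4.isLong (chevF4.simple (3 - i)) = !sF4.isLong (chevF4.simple i) := by
  decide +kernel

theorem even_terms : ∀ r < 48, posT tabF4 r = true → ∀ s < 48, posT tabF4 s = true →
    ∀ c ∈ chevF4.commTerms r s,
      (!(sF4.isLong c.1 && !sF4.isLong s && Nat.beq c.2.2.2 1) || (c.2.1.natAbs % 2 == 0)) = true := by
  decide +kernel

theorem even_terms' {r s : ℕ} (hr : chevF4.IsPosRoot r) (hs : chevF4.IsPosRoot s) {c : ℕ × ℤ × ℕ × ℕ}
    (hc : c ∈ chevF4.commTerms r s) (h1 : sF4.isLong c.1 = true) (h2 : sF4.isLong s = false) (h3 : c.2.2.2 = 1) :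
    (2 : ℤ) ∣ c.2.1 := by
  have := even_terms r hr.1 ((isPos_posT hr.1).mp hr) s hs.1 ((isPos_posT hs.1).mp hs) c hc
  simp [h1, h2, h3] at this
  omega

theorem lenF_one_le (r : ℕ) : 1 ≤ lenF r := by
  unfold lenF
  split_ifs
  · exact Real.one_le_sqrt.mpr one_le_two
  · exact le_rfl

theorem lenF_le_sqrt (r : ℕ) : lenF r ≤ Real.sqrt 2 := by
  unfold lenF
  split_ifs
  · exact le_rfl
  · exact Real.one_le_sqrt.mpr one_le_two

theorem sqrt_two_le : Real.sqrt 2 ≤ 2 := by
  rw [Real.sqrt_le_iff]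
  norm_num

theorem lenF_le_two (r : ℕ) : lenF r ≤ 2 := (lenF_le_sqrt r).trans sqrt_two_le

theorem lenF_thr {K : Type u} [Field K] [CharP K 2] : Thr (F := K) (D := chevF4) lenF where
  one_le := lenF_one_le
  le_two := lenF_le_two
  refl_inv i hi r hr := by rw [lenF, lenF, long_refl i hi r hr]
  kill r s hr hs c hc := by
    obtain ⟨-, h2, -⟩ := cF.{u}.commTerms_coef hr.1 hs.1 c hc
    by_cases h : sF4.isLong c.1 = true ∧ sF4.isLong s = false ∧ c.2.2.2 = 1
    · exact Or.inr ((CharP.intCast_eq_zero_iff K 2 _).mpr (even_terms' hr hs hc h.1 h.2.1 h.2.2))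
    refine Or.inl ?_
    have h2' : (1 : ℝ) ≤ (c.2.2.2 : ℝ) := by exact_mod_cast h2
    have hs1 := lenF_one_le s
    by_cases hj : c.2.2.2 = 1
    · rw [hj, Nat.cast_one, one_mul]
      rcases Bool.eq_false_or_eq_true (sF4.isLong s) with hl | hl
      · exact (lenF_le_sqrt _).trans_eq (by simp [lenF, hl])
      · rcases Bool.eq_false_or_eq_true (sF4.isLong c.1) with hl' | hl'
        · exact absurd ⟨hl', hl, hj⟩ h
        · simp [lenF, hl, hl']
    · have h2'' : (2 : ℝ) ≤ (c.2.2.2 : ℝ) := by exact_mod_cast (show 2 ≤ c.2.2.2 by omega)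
      calc lenF c.1 ≤ 2 := lenF_le_two _
        _ ≤ (c.2.2.2 : ℝ) * lenF s := by nlinarith

/-- The weight carried over by the twist. -/
noncomputable def barW (x : Fin chevF4.rank → ℝ) : Fin chevF4.rank → ℝ := fun i =>
  lenF (chevF4.simple (i : ℕ)) ^ 2 / Real.sqrt 2 * x ⟨3 - (i : ℕ), by show 3 - (i : ℕ) < 4; omega⟩

theorem barW_nonneg {x : Fin chevF4.rank → ℝ} (hx : ∀ j, 0 ≤ x j) : ∀ j, 0 ≤ barW x j := fun j =>
  mul_nonneg (div_nonneg (sq_nonneg _) (Real.sqrt_nonneg _)) (hx _)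

theorem ev_barW (x : Fin chevF4.rank → ℝ) {r : ℕ} (hr : r < 48) :
    ev cF.{u} (barW x) (sF4.barF r) / lenF (sF4.barF r) = ev cF.{u} x r / lenF r := by
  have hs : Real.sqrt 2 * Real.sqrt 2 = 2 := Real.mul_self_sqrt zero_le_two
  have hs0 : Real.sqrt 2 ≠ 0 := by positivity
  have hL : ∀ r, lenF r ^ 2 = (((if sF4.isLong r then (2 : ℤ) else 1) : ℤ) : ℝ) := fun r => by
    unfold lenF
    split_ifs <;> simp
  have h1 : lenF r ^ 2 * ev cF.{u} (barW x) (sF4.barF r) = Real.sqrt 2 * ev cF.{u} x r := by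
    unfold ev
    rw [Finset.mul_sum, Finset.mul_sum]
    refine Fintype.sum_equiv Fin.revPerm _ _ fun i => ?_
    have hi : (i : ℕ) < 4 := i.isLt
    have e : (Fin.revPerm i : Fin chevF4.rank) = ⟨3 - (i : ℕ), by show 3 - (i : ℕ) < 4; omega⟩ := by
      apply Fin.ext
      simp only [Fin.revPerm_apply, Fin.val_rev]
      show 4 - ((i : ℕ) + 1) = 3 - (i : ℕ)
      omega
    rw [e]
    have ht := lenF_sq_table r hr i hi
    have ht' : (((if sF4.isLong r then (2 : ℤ) else 1) : ℤ) : ℝ) * (cF.{u}.coef (sF4.barF r) i : ℝ) =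
        (((if sF4.isLong (chevF4.simple (3 - (i : ℕ))) then (2 : ℤ) else 1) : ℤ) : ℝ) *
          (cF.{u}.coef r (3 - (i : ℕ)) : ℝ) := by exact_mod_cast ht
    have hp : (((if sF4.isLong (chevF4.simple (3 - (i : ℕ))) then (2 : ℤ) else 1) : ℤ) : ℝ) *
        lenF (chevF4.simple (i : ℕ)) ^ 2 = 2 := by
      rw [hL, long_simple i hi]
      cases sF4.isLong (chevF4.simple (i : ℕ)) <;> norm_num
    simp only [barW]
    rw [hL r]
    set P := x ⟨3 - (i : ℕ), _⟩
    field_simp
    rw [Real.sq_sqrt zero_le_two, show ((((if sF4.isLong r then (2 : ℤ) else 1) : ℤ) : ℝ) *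
      (cF.{u}.coef (sF4.barF r) i : ℝ)) = _ from ht']
    linear_combination (P * (cF.{u}.coef r (3 - (i : ℕ)) : ℝ)) * hp
  have hl1 : lenF (sF4.barF r) * lenF r = Real.sqrt 2 := by
    unfold lenF
    rw [(sF4_ok.{0}).long_bar r hr]
    cases sF4.isLong r <;> simp
  have ha := lt_of_lt_of_le one_pos (lenF_one_le r)
  have hb := lt_of_lt_of_le one_pos (lenF_one_le (sF4.barF r))
  rw [div_eq_div_iff hb.ne' ha.ne']
  rw [← mul_left_inj' ha.ne']
  linear_combination h1 - ev cF.{u} x r * hl1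

theorem qf_barW (x : Fin chevF4.rank → ℝ) : qfA cF.{u} lenF (barW x) = qfA cF.{u} lenF x := by
  refine Finset.sum_nbij' sF4.barF sF4.barF ?_ ?_ ?_ ?_ ?_
  · exact fun r hr => Finset.mem_range.mpr ((sF4_ok.{0}).bar_lt r (Finset.mem_range.mp hr))
  · exact fun r hr => Finset.mem_range.mpr ((sF4_ok.{0}).bar_lt r (Finset.mem_range.mp hr))
  · exact fun r hr => (sF4_ok.{0}).bar_bar r (Finset.mem_range.mp hr)
  · exact fun r hr => (sF4_ok.{0}).bar_bar r (Finset.mem_range.mp hr)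
  · intro r hr
    rw [← ev_barW x ((sF4_ok.{0}).bar_lt r (Finset.mem_range.mp hr)), (sF4_ok.{0}).bar_bar r (Finset.mem_range.mp hr)]

theorem cs_barW (x : Fin chevF4.rank → ℝ) {r : ℕ} (hr : csA cF.{u} lenF x r) :
    csA cF.{u} lenF (barW x) (sF4.barF r) := by
  refine ⟨pos_bar hr.1, ?_⟩
  have ha := lt_of_lt_of_le one_pos (lenF_one_le r)
  have hb := lt_of_lt_of_le one_pos (lenF_one_le (sF4.barF r))
  rw [← one_le_div hb, ev_barW x hr.1.1, one_le_div ha]
  exact hr.2

theorem card_par {K : Type u} [Field K] [Fintype K] (J : List ℕ) {L : List PStep}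
    (h : okPChain tabF4 J L = true) :
    Nat.card (chevF4.parabolicSubgroup K {j | j ∈ J}) =
      Fintype.card K ^ 24 * Nat.card (chevF4.diagonalSubgroup K) * (L.map fun S => S.factor (Fintype.card K)).prod := by
  rw [natCard_parabolic cF.{u} coxF4 J, cF.{u}.natCard_borel, cF.{u}.natCard_posUnipotent,
    wPoly_of_okChain allOKF4 coxF4 _ J L h, show chevF4.nroots / 2 = 24 by decide]

/-- The two steps for the nodes at the ends of the diagram. -/
def pstep03a : PStep where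
  imgs := [0x18191b21, 0x1819220e]
  par := [0x0, 0x21]
  dep := [0, 1]
  trans := [0xa01, 0xa00]

/-- The second step. -/
def pstep03b : PStep where
  imgs := [0x18191b21, 0x171a1b21]
  par := [0x0, 0x318]
  dep := [0, 1]
  trans := [0x1, 0x0]

theorem ok03 : okPChain tabF4 [0, 3] [pstep03a, pstep03b] = true := by decide +kernel

theorem ok12 : okPChain tabF4 [1, 2] [pstepF4_2, pstepF4_3] = true := by decide +kernel

theorem centralizer_orderOf_dvd {K : Type u} [Field K] [Fintype K] {m : ℕ} (h : Ctx K m) (A B : GL chevF4.Idx K)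
    (hA : A ∈ tw K m) (hB : B ∈ tw K m) (hA2 : orderOf A = 2) (hAB : Commute A B) :
    orderOf B ∣ Fintype.card K ^ 24 * Nat.card (chevF4.diagonalSubgroup K) *
      (1 + Fintype.card K) ^ 2 * (1 + Fintype.card K ^ 2) := by
  classical
  have hchar := h.char
  haveI : Fact (Nat.Prime 2) := ⟨Nat.prime_two⟩
  set U : Subgroup (GL chevF4.Idx K) := Subgroup.zpowers A
  have hUt : U ≤ tw K m := Subgroup.zpowers_le.mpr hA
  have hUG : U ≤ chevF4.group K := hUt.trans (tw_le_group m)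
  have hU : IsPGroup 2 ↥U := IsPGroup.of_card (n := 1) (by rw [Nat.card_zpowers, hA2, pow_one])
  obtain ⟨P, hP⟩ := Cfsg.Agent.KnownA.Steinberg.exists_sylow cF.{u} coxF4 2 (F := K)
  have hU' : IsPGroup 2 ↥(U.subgroupOf (chevF4.group K)) :=
    hU.comap_of_injective (chevF4.group K).subtype (chevF4.group K).subtype_injective
  obtain ⟨Q, hQ⟩ := hU'.exists_le_sylow
  obtain ⟨c, hc⟩ := MulAction.exists_smul_eq ↥(chevF4.group K) P Q
  have h0 : ∀ u ∈ U, (c : GL chevF4.Idx K)⁻¹ * u * c ∈ chevF4.posUnipotent K := by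
    intro u hu
    have h1 : (⟨u, hUG hu⟩ : ↥(chevF4.group K)) ∈ ((c • P : Sylow 2 ↥(chevF4.group K)) : Subgroup ↥(chevF4.group K)) :=
      hc ▸ hQ (Subgroup.mem_subgroupOf.mpr hu)
    rw [Sylow.coe_subgroup_smul, Subgroup.mem_pointwise_smul_iff_inv_smul_mem, hP,
      Subgroup.mem_subgroupOf] at h1
    simpa using h1
  have ht : Thr (F := K) (D := chevF4) lenF := lenF_thr
  obtain ⟨x, hx, ⟨g, hg, hgu⟩, hbest⟩ := exists_best cF.{u} ht U c.2 h0
  have hsg : sig h g ∈ chevF4.group K := sig_mem h hg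
  have hfeas : ∀ u ∈ U, (sig h g)⁻¹ * u * sig h g ∈ spanGroup chevF4 K (csA cF.{u} lenF (barW x)) := by
    intro u hu
    have e : (sig h g)⁻¹ * u * sig h g = sig h (g⁻¹ * u * g) := by
      rw [sig_mul h (mul_mem (inv_mem hg) (hUG hu)) hg, sig_mul h (inv_mem hg) (hUG hu), sig_inv h hg,
        sig_of_mem h (hUt hu)]
    rw [e]
    refine sig_closure h (fun y hy => ?_) (fun y hy => ?_) (hgu u hu)
    · obtain ⟨r, t, -, e⟩ := hy
      rw [cF.{u}.eq_xu.mp e]
      exact cF.{u}.xu_mem_group _ _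
    · obtain ⟨r, t, hr, e⟩ := hy
      rw [cF.{u}.eq_xu.mp e, sig_xu h hr.1.1]
      exact cF.{u}.xu_mem_span (cs_barW x hr) _
  have hbest' : Best cF.{u} lenF U (barW x) := fun y hy hf => (qf_barW x).le.trans (hbest y hy hf)
  obtain ⟨hxx, -⟩ := best_unique cF.{u} ht coxF4 U hx (barW_nonneg hx) hbest hbest' hg hsg hgu hfeas
  have hBg : B * g ∈ chevF4.group K := mul_mem (tw_le_group m hB) hg
  have hBu : ∀ u ∈ U, (B * g)⁻¹ * u * (B * g) ∈ spanGroup chevF4 K (csA cF.{u} lenF x) := by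
    intro u hu
    have hc' : Commute u B := by
      obtain ⟨k, rfl⟩ := Subgroup.mem_zpowers_iff.mp hu
      exact hAB.zpow_left k
    convert hgu u hu using 1
    calc (B * g)⁻¹ * u * (B * g) = g⁻¹ * (B⁻¹ * (u * B)) * g := by group
      _ = _ := by rw [hc'.eq, inv_mul_cancel_left]
  obtain ⟨-, hPJ⟩ := best_unique cF.{u} ht coxF4 U hx hx hbest hbest hg hBg hgu hBu
  have hsym : ∀ i j : Fin chevF4.rank, (i : ℕ) + j = 3 → x j = 0 → x i = 0 := by
    intro i j hij hj
    rw [hxx]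
    show _ * x ⟨3 - (i : ℕ), _⟩ = 0
    rw [show (⟨3 - (i : ℕ), _⟩ : Fin chevF4.rank) = j from Fin.ext (show 3 - (i : ℕ) = j by omega), hj, mul_zero]
  have hne : ¬ ∀ j, x j = 0 := by
    intro hall
    have h1 := hgu A (Subgroup.mem_zpowers A)
    rw [cF.{u}.span_empty fun r hr => ?_, Subgroup.mem_bot] at h1
    · have hA1 : A = 1 := by
        have := congrArg (fun y => g * y * g⁻¹) h1
        simpa [mul_assoc] using this
      rw [hA1, orderOf_one] at hA2
      omega
    · have h2 : ev cF.{u} x r = 0 := Finset.sum_eq_zero fun j _ => by rw [hall j, mul_zero]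
      linarith [hr.2, lenF_one_le r]
  set J : Set ℕ := {j | ∃ hj : j < chevF4.rank, x ⟨j, hj⟩ = 0}
  have hcase : J ⊆ {j | j ∈ [1, 2]} ∨ J ⊆ {j | j ∈ [0, 3]} := by
    let f : ℕ → Fin chevF4.rank := fun k => if hk : k < 4 then ⟨k, hk⟩ else ⟨0, by decide⟩
    by_cases h1 : x (f 0) = 0
    · right
      rintro j ⟨hj, hxj⟩
      have hj4 : j < 4 := hj
      simp only [Set.mem_setOf_eq, List.mem_cons, List.not_mem_nil, or_false]
      by_contra hcon
      refine hne fun i => ?_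
      have hi : (i : ℕ) < 4 := i.isLt
      have h3 : x (f 3) = 0 := hsym (f 3) (f 0) rfl h1
      have h12 : x (f 1) = 0 ∧ x (f 2) = 0 := by
        rcases (show j = 1 ∨ j = 2 by omega) with rfl | rfl
        · exact ⟨hxj, hsym (f 2) (f 1) rfl hxj⟩
        · exact ⟨hsym (f 1) (f 2) rfl hxj, hxj⟩
      rcases (show (i : ℕ) = 0 ∨ (i : ℕ) = 1 ∨ (i : ℕ) = 2 ∨ (i : ℕ) = 3 by omega) with e | e | e | e
      · rwa [show i = f 0 from Fin.ext e]
      · rw [show i = f 1 from Fin.ext e]; exact h12.1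
      · rw [show i = f 2 from Fin.ext e]; exact h12.2
      · rwa [show i = f 3 from Fin.ext e]
    · left
      rintro j ⟨hj, hxj⟩
      have hj4 : j < 4 := hj
      simp only [Set.mem_setOf_eq, List.mem_cons, List.not_mem_nil, or_false]
      by_contra hcon
      rcases (show j = 0 ∨ j = 3 by omega) with rfl | rfl
      · exact h1 hxj
      · exact h1 (hsym (f 0) (f 3) rfl hxj)
  have hord : orderOf B = orderOf (g⁻¹ * (B * g)) := by
    have := orderOf_injective (MulAut.conj g⁻¹).toMonoidHom (MulAut.conj g⁻¹).injective B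
    rw [← this]
    simp [mul_assoc]
  rw [hord]
  have hmono : ∀ {J' : Set ℕ}, J ⊆ J' → chevF4.parabolicSubgroup K J ≤ chevF4.parabolicSubgroup K J' :=
    fun hJ => cF.{u}.parabolic_le (cF.{u}.borel_le_parabolic _) fun j hj hjJ => cF.{u}.nu_mem_parabolic hj (hJ hjJ)
  rcases hcase with hc12 | hc03
  · have hd := Subgroup.orderOf_dvd_natCard _ (hmono hc12 hPJ)
    rw [card_par [1, 2] ok12] at hd
    refine hd.trans (dvd_of_eq ?_)
    simp [PStep.factor, pstepF4_2, pstepF4_3]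
    ring
  · have hd := Subgroup.orderOf_dvd_natCard _ (hmono hc03 hPJ)
    rw [card_par [0, 3] ok03] at hd
    refine hd.trans (Dvd.intro (1 + Fintype.card K ^ 2) ?_)
    simp [PStep.factor, pstep03a, pstep03b]
    ring

end Cfsg.Agent.KnownA.ReeCent
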