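import Cfsg.Agent.Chars2.SplitBN.BorelTits
import Cfsg.Agent.Chev.Orders
import Cfsg.Agent.Chev.TwistBruhat

/-!
Shortest weights with a threshold depending on the length of the root: any two shortest weights attached to the
same subgroup are equal, and the two conjugating elements differ by an element of the parabolic subgroup.
-/

set_option autoImplicit false
set_option linter.unusedSectionVars false
set_option linter.style.haveILetI false

universe u

namespace Cfsg.Agent.KnownA.ReeCent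

open Cfsg.Lie Cfsg.Agent.Chev
open Cfsg.Agent.Chars2.SplitBN.BorelTits (ev mv ev_simple ev_nonneg ev_nonpos ev_refl ev_mv ev_avg ev_half_sub
  exists_dominant mem_noninverted mem_parabolic_of_fix)

variable {D : ChevalleyDatum} {F : Type u} [Field F] (C : Cert.{u} D) (a : ℕ → ℝ)

/-- The conditions on the threshold. -/
structure Thr : Prop where
  one_le : ∀ r, 1 ≤ a r
  le_two : ∀ r, a r ≤ 2
  refl_inv : ∀ i < D.rank, ∀ r < D.nroots, a (D.reflectRoot i r) = a r
  kill : ∀ r s, D.IsPosRoot r → D.IsPosRoot s → ∀ c ∈ D.commTerms r s,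
    a c.1 ≤ (c.2.2.2 : ℝ) * a s ∨ (c.2.1 : F) = 0

/-- The positive roots on which a weight reaches the threshold. -/
def csA (x : Fin D.rank → ℝ) (r : ℕ) : Prop := D.IsPosRoot r ∧ a r ≤ ev C x r

/-- The invariant quadratic form. -/
noncomputable def qfA (x : Fin D.rank → ℝ) : ℝ := ∑ r ∈ Finset.range D.nroots, (ev C x r / a r) ^ 2

/-- A weight which is shortest among those attached to the subgroup. -/
def Best (U : Subgroup (GL D.Idx F)) (x : Fin D.rank → ℝ) : Prop :=
  ∀ y : Fin D.rank → ℝ, (∀ j, 0 ≤ y j) →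
    (∃ g ∈ D.group F, ∀ u ∈ U, g⁻¹ * u * g ∈ spanGroup D F (csA C a y)) → qfA C a x ≤ qfA C a y

section

variable {a} (ha : Thr (F := F) (D := D) a)
include C ha

theorem thr_pos (r : ℕ) : 0 < a r := lt_of_lt_of_le one_pos (ha.one_le r)

theorem thr_act {L : List ℕ} (hL : ∀ i ∈ L, i < D.rank) {r : ℕ} (hr : r < D.nroots) :
    a (act D L r) = a r := by
  induction L with
  | nil => rfl
  | cons i L ih =>
    have hL' : ∀ j ∈ L, j < D.rank := fun j hj => hL j (List.mem_cons_of_mem _ hj)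
    rw [act_cons, ha.refl_inv i (hL i List.mem_cons_self) _ (C.act_lt hL' hr), ih hL']

theorem pos_of_evA {x : Fin D.rank → ℝ} (hx : ∀ j, 0 ≤ x j) {r : ℕ} (hr : r < D.nroots)
    (h : a r ≤ ev C x r) : D.IsPosRoot r := by
  rcases C.posRoot_or_negRoot hr with hp | hn
  · exact hp
  · exact absurd (ev_nonpos C hx hn) (by linarith [ha.one_le r])

theorem qfA_mv (x : Fin D.rank → ℝ) {L : List ℕ} (hL : ∀ i ∈ L, i < D.rank) :
    qfA C a (mv C x L) = qfA C a x := by
  have hL' : ∀ i ∈ L.reverse, i < D.rank := fun i hi => hL i (List.mem_reverse.mp hi)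
  refine Finset.sum_nbij' (act D L) (act D L.reverse) ?_ ?_ ?_ ?_ ?_
  · exact fun r hr => Finset.mem_range.mpr (C.act_lt hL (Finset.mem_range.mp hr))
  · exact fun r hr => Finset.mem_range.mpr (C.act_lt hL' (Finset.mem_range.mp hr))
  · exact fun r hr => act_reverse_left C hL (Finset.mem_range.mp hr)
  · exact fun r hr => act_reverse_right C hL (Finset.mem_range.mp hr)
  · exact fun r hr => by rw [ev_mv C x hL (Finset.mem_range.mp hr), thr_act C ha hL (Finset.mem_range.mp hr)]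

theorem sq_le_qfA (x : Fin D.rank → ℝ) (j : Fin D.rank) : x j ^ 2 ≤ 4 * qfA C a x := by
  have h : (x j / a (D.simple j)) ^ 2 ≤ qfA C a x := by
    have := Finset.single_le_sum (f := fun r => (ev C x r / a r) ^ 2) (s := Finset.range D.nroots)
      (fun r _ => sq_nonneg _) (Finset.mem_range.mpr (C.simple_lt j j.isLt))
    show _ ≤ qfA C a x
    unfold qfA
    simpa only [ev_simple] using this
  have hp := thr_pos C ha (D.simple j)
  rw [div_pow, div_le_iff₀ (by positivity)] at h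
  have h4 : a (D.simple j) ^ 2 ≤ 4 := by nlinarith [ha.le_two (D.simple j)]
  have hq : 0 ≤ qfA C a x := Finset.sum_nonneg fun r _ => sq_nonneg _
  nlinarith

theorem parallelogramA (x z : Fin D.rank → ℝ) :
    qfA C a (fun j => (x j + z j) / 2) + qfA C a (fun j => (x j - z j) / 2) = (qfA C a x + qfA C a z) / 2 := by
  simp only [qfA, ev_avg, ev_half_sub, ← Finset.sum_add_distrib, Finset.sum_div]
  exact Finset.sum_congr rfl fun r _ => by ring

theorem closed_csA (x : Fin D.rank → ℝ) : ClosedSet D (csA C a x) := by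
  refine ⟨fun r hr => hr.1, fun r s hr hs c hc => ⟨C.commTerms_pos hr.1 hs.1 c hc, ?_⟩⟩
  obtain ⟨h1, h2, h3⟩ := C.commTerms_coef hr.1.1 hs.1.1 c hc
  have e : ev C x c.1 = (c.2.2.1 : ℝ) * ev C x r + (c.2.2.2 : ℝ) * ev C x s := by
    simp only [ev, Finset.mul_sum, ← Finset.sum_add_distrib]
    exact Finset.sum_congr rfl fun j _ => by rw [h3 j j.isLt]; push_cast; ring
  have h1' : (1 : ℝ) ≤ (c.2.2.1 : ℝ) := by exact_mod_cast h1
  have h2' : (1 : ℝ) ≤ (c.2.2.2 : ℝ) := by exact_mod_cast h2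
  have A := one_le_mul_of_one_le_of_one_le h1' (le_trans (ha.one_le r) hr.2)
  have B := one_le_mul_of_one_le_of_one_le h2' (le_trans (ha.one_le s) hs.2)
  linarith [e, ha.le_two c.1]

theorem borel_normalisesA {x : Fin D.rank → ℝ} (hx : ∀ j, 0 ≤ x j) :
    D.borelSubgroup F ≤ Subgroup.normalizer (spanGroup D F (csA C a x) : Set (GL D.Idx F)) := by
  refine sup_le ?_ (C.diag_normalises _ fun r hr => hr.1.1)
  show spanGroup D F D.IsPosRoot ≤ _
  refine C.span_le fun r hr t => ?_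
  have key : ∀ (t : F) (s : ℕ), csA C a x s → ∀ v : F,
      C.xu r t * C.xu s v * (C.xu r t)⁻¹ ∈ spanGroup D F (csA C a x) := by
    intro t s hs v
    by_cases he : s = r
    · subst he
      rw [C.xu_inv, C.xu_add, C.xu_add]
      exact C.xu_mem_span hs _
    rw [C.conj_xu hr.1 hs.1.1 he (fun e => C.not_pos_and_neg hs.1 (e ▸ C.negRoot_neg hr))]
    refine mul_mem (C.xu_mem_span hs _) ?_
    refine list_prod_mem fun y hy => ?_
    obtain ⟨p, hp, rfl⟩ := List.mem_map.mp hy
    obtain ⟨c, hc, rfl⟩ := List.mem_map.mp hp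
    obtain ⟨-, h2, h3⟩ := C.commTerms_coef hr.1 hs.1.1 c hc
    rcases ha.kill r s hr hs.1 c hc with hk | hk
    · refine C.xu_mem_span (P := csA C a x) ⟨C.commTerms_pos hr hs.1 c hc, ?_⟩ _
      have e : ev C x c.1 = (c.2.2.1 : ℝ) * ev C x r + (c.2.2.2 : ℝ) * ev C x s := by
        simp only [ev, Finset.mul_sum, ← Finset.sum_add_distrib]
        exact Finset.sum_congr rfl fun j _ => by rw [h3 j j.isLt]; push_cast; ring
      have A : 0 ≤ (c.2.2.1 : ℝ) * ev C x r := mul_nonneg (Nat.cast_nonneg _) (ev_nonneg C hx hr)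
      have B : (c.2.2.2 : ℝ) * a s ≤ (c.2.2.2 : ℝ) * ev C x s :=
        mul_le_mul_of_nonneg_left hs.2 (Nat.cast_nonneg _)
      show a c.1 ≤ ev C x c.1
      linarith [e]
    · dsimp only
      rw [hk, zero_mul, zero_mul, C.xu_zero]
      exact one_mem _
  refine C.mem_normalizer_span (key t) fun s hs v => ?_
  have := key (-t) s hs v
  rwa [← C.xu_inv, inv_inv] at this

theorem span_le_radicalA {x : Fin D.rank → ℝ} {J : Set ℕ}
    (hJ : ∀ i : Fin D.rank, (i : ℕ) ∈ J → x i = 0) :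
    spanGroup D F (csA C a x) ≤ D.unipotentRadical F J := by
  rw [C.radical_eq]
  refine C.span_mono fun r hr => ⟨hr.1, fun hin => ?_⟩
  have h0 : ev C x r = 0 := Finset.sum_eq_zero fun j _ => by
    by_cases hj : (j : ℕ) ∈ J
    · rw [hJ j hj, mul_zero]
    · rw [(C.inRootSub_iff.mp hin).2 j j.isLt hj, Int.cast_zero, zero_mul]
  linarith [hr.2, ha.one_le r]

/-- Shortest weights exist. -/
theorem exists_best [Finite F] (U : Subgroup (GL D.Idx F)) {g₀ : GL D.Idx F} (hg₀ : g₀ ∈ D.group F)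
    (h0 : ∀ u ∈ U, g₀⁻¹ * u * g₀ ∈ D.posUnipotent F) :
    ∃ x : Fin D.rank → ℝ, (∀ j, 0 ≤ x j) ∧
      (∃ g ∈ D.group F, ∀ u ∈ U, g⁻¹ * u * g ∈ spanGroup D F (csA C a x)) ∧ Best C a U x := by
  classical
  haveI : Fintype F := Fintype.ofFinite F
  let ι := {gA : ↥(D.group F) × Finset (Fin D.nroots) //
    ∀ u ∈ U, (gA.1 : GL D.Idx F)⁻¹ * u * gA.1 ∈
      spanGroup D F (fun r => D.IsPosRoot r ∧ ∃ h : r < D.nroots, (⟨r, h⟩ : Fin D.nroots) ∈ gA.2)}
  let S : ι → Set (Fin D.rank → ℝ) := fun gA =>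
    {x | (∀ j, 0 ≤ x j) ∧ ∀ r ∈ gA.1.2, a r ≤ ev C x r}
  haveI : Finite ι := Subtype.finite
  have hcont : ∀ r : ℕ, Continuous fun x : Fin D.rank → ℝ => ev C x r := fun r => by
    unfold ev
    exact continuous_finsetSum _ fun j _ => continuous_const.mul (continuous_apply j)
  have hclosed : IsClosed (⋃ gA, S gA) := by
    refine isClosed_iUnion_of_finite fun gA => ?_
    have e : S gA = (⋂ j, {x : Fin D.rank → ℝ | 0 ≤ x j}) ∩
        ⋂ r ∈ gA.1.2, {x : Fin D.rank → ℝ | a r ≤ ev C x r} := by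
      ext x; simp [S]
    rw [e]
    exact (isClosed_iInter fun j => isClosed_le continuous_const (continuous_apply j)).inter
      (isClosed_biInter fun r _ => isClosed_le continuous_const (hcont r))
  have hin : ∀ y : Fin D.rank → ℝ, (∀ j, 0 ≤ y j) →
      (∃ g ∈ D.group F, ∀ u ∈ U, g⁻¹ * u * g ∈ spanGroup D F (csA C a y)) → y ∈ ⋃ gA, S gA := by
    rintro y hy ⟨g, hg, hgu⟩
    refine Set.mem_iUnion.mpr ⟨⟨(⟨g, hg⟩, Finset.univ.filter fun r : Fin D.nroots => csA C a y r),
      fun u hu => C.span_mono (fun r hr => ?_) (hgu u hu)⟩, hy, fun r hr => ?_⟩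
    · exact ⟨hr.1, hr.1.1, Finset.mem_filter.mpr ⟨Finset.mem_univ _, hr⟩⟩
    · exact (Finset.mem_filter.mp hr).2.2
  let x₀ : Fin D.rank → ℝ := fun _ => 2
  have hx₀ : ∀ j, 0 ≤ x₀ j := fun _ => zero_le_two
  have hx₀S : x₀ ∈ ⋃ gA, S gA := by
    refine hin x₀ hx₀ ⟨g₀, hg₀, fun u hu => C.span_mono (P := D.IsPosRoot) (fun r hr => ⟨hr, ?_⟩) (h0 u hu)⟩
    have h1 : (1 : ℤ) ≤ C.ht r := C.ht_pos hr
    have h2 : ev C x₀ r = 2 * (C.ht r : ℝ) := by
      simp only [ev, Cert.ht, x₀, Finset.sum_range, ← Finset.sum_mul]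
      push_cast
      ring
    rw [h2]
    have : (1 : ℝ) ≤ (C.ht r : ℝ) := by exact_mod_cast h1
    linarith [ha.le_two r]
  set c := 4 * qfA C a x₀ + 2 with hc
  have hqnn : ∀ x, 0 ≤ qfA C a x := fun x => Finset.sum_nonneg fun r _ => sq_nonneg _
  set K := (⋃ gA, S gA) ∩ Set.Icc (0 : Fin D.rank → ℝ) (fun _ => c) with hK
  have hKc : IsCompact K := isCompact_Icc.inter_left hclosed
  have hx₀K : x₀ ∈ K := ⟨hx₀S, fun j => hx₀ j, fun j => by
    show (2 : ℝ) ≤ c
    linarith [hqnn x₀]⟩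
  have hqc : Continuous (qfA C a) := by
    unfold qfA
    exact continuous_finsetSum _ fun r _ => ((hcont r).div_const _).pow 2
  obtain ⟨x, hxK, hmin⟩ := hKc.exists_isMinOn ⟨x₀, hx₀K⟩ hqc.continuousOn
  obtain ⟨gA, hx, hxA⟩ := Set.mem_iUnion.mp hxK.1
  refine ⟨x, hx, ⟨gA.1.1, gA.1.1.2, fun u hu => C.span_mono ?_ (gA.2 u hu)⟩, fun y hy hfeas => ?_⟩
  · rintro r ⟨hr, hlt, hmem⟩
    exact ⟨hr, hxA _ hmem⟩
  · by_cases hbig : qfA C a x₀ < qfA C a y
    · exact le_trans (hmin hx₀K) hbig.le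
    · push Not at hbig
      refine hmin ⟨hin y hy hfeas, fun j => hy j, fun j => ?_⟩
      have h1 := sq_le_qfA C ha y j
      show y j ≤ c
      nlinarith [hy j, hqnn x₀]

/-- Two dominant weights in one orbit are equal. -/
theorem eq_of_act [Finite F] {M : CoxeterMatrix (Fin D.rank)} (hM : CoxOK D M) {x y : Fin D.rank → ℝ}
    (hx : ∀ j, 0 ≤ x j) (hy : ∀ j, 0 ≤ y j) :
    ∀ (k : ℕ) (L : List (Fin D.rank)), invCount D F (C.nWordElt F (L.map Fin.val)) = k →
      (∀ r < D.nroots, ev C x (act D (L.map Fin.val) r) = ev C y r) → x = y := by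
  intro k
  induction k with
  | zero =>
    intro L hk hL
    have hH := C.mem_diagonal_of_invCount_zero hM (C.nWordElt_mem (C.fin_word_lt L)) hk
    have hp := C.perm_eq_of_diagonal (F := F) (L := []) (L' := L)
      (by simpa [Cert.nWordElt] using hH)
    funext j
    have h1 := hL _ (C.simple_lt j j.isLt)
    rw [← C.reflPerm_prod L ⟨_, C.simple_lt j j.isLt⟩, ← hp] at h1
    simp only [List.map_nil, List.prod_nil, Equiv.Perm.coe_one, id_eq] at h1
    rwa [ev_simple, ev_simple] at h1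
  | succ k ih =>
    intro L hk hL
    set n := C.nWordElt F (L.map Fin.val) with hn
    have hnN : n ∈ D.monomialSubgroup F := C.nWordElt_mem (C.fin_word_lt L)
    have hH : n ∉ D.diagonalSubgroup F := fun hH => by rw [C.invCount_diagonal hH] at hk; omega
    obtain ⟨i, hi, hinv⟩ := C.exists_descent hM hnN hH
    have hneg := (C.inverts_iff (C.pos_simple hi) (C.act_lt (C.fin_word_lt L) (C.simple_lt i hi))
      (C.map_rootSubgroup (C.nWordElt_conj_xu (F := F) (C.fin_word_lt L) (C.simple_lt i hi)))).mp hinv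
    have hyi : y ⟨i, hi⟩ = 0 := by
      have h1 : ev C y (D.simple i) = y ⟨i, hi⟩ := ev_simple C y ⟨i, hi⟩
      have h2 := ev_nonpos C hx hneg
      rw [hL _ (C.simple_lt i hi), h1] at h2
      exact le_antisymm h2 (hy _)
    have hc1 := C.invCount_descend hM hi (C.isRefl_nu (F := F) hi) hnN hinv
    have e : C.nWordElt F ((L ++ [(⟨i, hi⟩ : Fin D.rank)]).map Fin.val) = n * C.nu (D.simple i) 1 := by
      rw [List.map_append, C.nWordElt_append]
      simp [Cert.nWordElt, hn]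
    refine ih (L ++ [(⟨i, hi⟩ : Fin D.rank)]) (by rw [e]; omega) fun r hr => ?_
    rw [List.map_append, act_append]
    show ev C x (act D (L.map Fin.val) (D.reflectRoot i r)) = ev C y r
    rw [hL _ (C.refl_lt i hi r hr), show D.reflectRoot i r = D.reflectRoot ((⟨i, hi⟩ : Fin D.rank) : ℕ) r from rfl,
      ev_refl C y ⟨i, hi⟩ hr, hyi, mul_zero, sub_zero]

/-- Two shortest pairs agree. -/
theorem best_unique [Finite F] {M : CoxeterMatrix (Fin D.rank)} (hM : CoxOK D M) (U : Subgroup (GL D.Idx F))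
    {x y : Fin D.rank → ℝ} (hx : ∀ j, 0 ≤ x j) (hy : ∀ j, 0 ≤ y j) (hbx : Best C a U x) (hby : Best C a U y)
    {g g' : GL D.Idx F} (hg : g ∈ D.group F) (hg' : g' ∈ D.group F)
    (hgu : ∀ u ∈ U, g⁻¹ * u * g ∈ spanGroup D F (csA C a x))
    (hgu' : ∀ u ∈ U, g'⁻¹ * u * g' ∈ spanGroup D F (csA C a y)) :
    x = y ∧ g⁻¹ * g' ∈ D.parabolicSubgroup F {j | ∃ h : j < D.rank, x ⟨j, h⟩ = 0} := by
  classical
  have hqxy : qfA C a y = qfA C a x :=
    le_antisymm (hby x hx ⟨g, hg, hgu⟩) (hbx y hy ⟨g', hg', hgu'⟩)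
  obtain ⟨n, hn, b, hb, b', hb', e⟩ := C.exists_bruhat hM (mul_mem (inv_mem hg) hg')
  obtain ⟨L, -, hL⟩ := C.monomial_conj_xu hM hn
  have hlt := C.fin_word_lt L
  have hlt' : ∀ i ∈ (L.map Fin.val).reverse, i < D.rank :=
    fun i hi => hlt i (List.mem_reverse.mp hi)
  set z := mv C y (L.map Fin.val).reverse with hzdef
  set w₀ : Fin D.rank → ℝ := fun j => (x j + z j) / 2 with hw₀
  have hmid : ∀ u ∈ U, (g * b)⁻¹ * u * (g * b) ∈ spanGroup D F (csA C a w₀) := by
    intro u hu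
    set w := (g * b)⁻¹ * u * (g * b) with hw
    have hw1 : w ∈ spanGroup D F (csA C a x) := by
      have := (Subgroup.mem_normalizer_iff.mp (borel_normalisesA C ha hx (inv_mem hb)) _).mp (hgu u hu)
      convert this using 1
      rw [hw]; group
    have hw2 : n⁻¹ * w * n ∈ spanGroup D F (csA C a y) := by
      have := (Subgroup.mem_normalizer_iff.mp (borel_normalisesA C ha hy hb') _).mp (hgu' _ hu)
      have hn' : n = b⁻¹ * (g⁻¹ * g') * b'⁻¹ := by rw [e]; group
      convert this using 1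
      rw [hw, hn']; group
    have hy' : spanGroup D F (csA C a y) ≤ D.posUnipotent F :=
      C.span_mono (Q := D.IsPosRoot) fun r hr => hr.1
    have hx' : spanGroup D F (csA C a x) ≤ D.posUnipotent F :=
      C.span_mono (Q := D.IsPosRoot) fun r hr => hr.1
    have hv := mem_noninverted C hM _ n _ hn rfl (hy' hw2) (by convert hx' hw1 using 1; group)
    have hclosed : ClosedSet D (fun r => D.IsPosRoot r ∧ ¬ Inverts D F n r) := by
      refine ⟨fun r hr => hr.1, fun r r' hr hr' c hc => ⟨C.commTerms_pos hr.1 hr'.1 c hc, ?_⟩⟩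
      intro hinvc
      have hc0 := C.commTerms_pos hr.1 hr'.1 c hc
      obtain ⟨h1c, h2c, h3c⟩ := C.commTerms_coef hr.1.1 hr'.1.1 c hc
      have hq : ∀ q, D.IsPosRoot q → ¬ Inverts D F n q →
          D.IsPosRoot (act D (L.map Fin.val) q) := by
        intro q hq hqi
        rcases C.posRoot_or_negRoot (C.act_lt hlt hq.1) with h | h
        · exact h
        · exact absurd ((C.inverts_iff hq (C.act_lt hlt hq.1)
            (C.map_rootSubgroup (hL _ hq.1))).mpr h) hqi
      have hneg := (C.inverts_iff hc0 (C.act_lt hlt hc0.1) (C.map_rootSubgroup (hL _ hc0.1))).mp hinvc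
      have hone : ∀ j, 0 ≤ (fun _ : Fin D.rank => (1 : ℝ)) j := fun _ => zero_le_one
      have e1 : ∀ q, q < D.nroots → ev C (mv C (fun _ => 1) (L.map Fin.val)) q =
          ev C (fun _ => 1) (act D (L.map Fin.val) q) := fun q hq => ev_mv C _ hlt hq
      have elin : ev C (mv C (fun _ => 1) (L.map Fin.val)) c.1 =
          (c.2.2.1 : ℝ) * ev C (mv C (fun _ => 1) (L.map Fin.val)) r +
            (c.2.2.2 : ℝ) * ev C (mv C (fun _ => 1) (L.map Fin.val)) r' := by
        simp only [ev, Finset.mul_sum, ← Finset.sum_add_distrib]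
        exact Finset.sum_congr rfl fun j _ => by rw [h3c j j.isLt]; push_cast; ring
      rw [e1 _ hc0.1, e1 _ hr.1.1, e1 _ hr'.1.1] at elin
      have hA : (1 : ℝ) ≤ ev C (fun _ => (1 : ℝ)) (act D (L.map Fin.val) r) := by
        have hh : (1 : ℤ) ≤ C.ht (act D (L.map Fin.val) r) := C.ht_pos (hq r hr.1 hr.2)
        simp only [ev, mul_one]
        rw [Cert.ht, Finset.sum_range] at hh
        exact_mod_cast hh
      have hB := ev_nonneg C hone (hq r' hr'.1 hr'.2)
      have hC := ev_nonpos C hone hneg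
      have h1' : (1 : ℝ) ≤ (c.2.2.1 : ℝ) := by exact_mod_cast h1c
      have hp1 := one_le_mul_of_one_le_of_one_le h1' hA
      have hp2 : 0 ≤ (c.2.2.2 : ℝ) * ev C (fun _ => (1 : ℝ)) (act D (L.map Fin.val) r') :=
        mul_nonneg (Nat.cast_nonneg _) hB
      linarith
    have hv' := C.span_inf (closed_csA C ha y) hclosed hw2 hv
    have hle : spanGroup D F (fun r => csA C a y r ∧ D.IsPosRoot r ∧ ¬ Inverts D F n r) ≤
        (spanGroup D F (csA C a z)).comap (MulAut.conj n).toMonoidHom := by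
      refine C.span_le fun r hr t => ?_
      obtain ⟨c, -, ec⟩ := hL r hr.2.1.1
      show n * C.xu r t * n⁻¹ ∈ spanGroup D F (csA C a z)
      rw [ec]
      refine C.xu_mem_span (P := csA C a z) ⟨?_, ?_⟩ _
      · rcases C.posRoot_or_negRoot (C.act_lt hlt hr.2.1.1) with h | h
        · exact h
        · exact absurd ((C.inverts_iff hr.2.1 (C.act_lt hlt hr.2.1.1)
            (C.map_rootSubgroup (hL _ hr.2.1.1))).mpr h) hr.2.2
      · rw [hzdef, ev_mv C y hlt' (C.act_lt hlt hr.2.1.1), act_reverse_left C hlt hr.2.1.1,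
          thr_act C ha hlt hr.2.1.1]
        exact hr.1.2
    have hwz : w ∈ spanGroup D F (csA C a z) := by
      have := hle hv'
      have e' : n * (n⁻¹ * w * n) * n⁻¹ = w := by group
      rw [← e']
      exact this
    refine C.span_mono (fun r hr => ⟨hr.1.1, ?_⟩) (C.span_inf (closed_csA C ha x) (closed_csA C ha z) hw1 hwz)
    rw [hw₀, ev_avg]
    linarith [hr.1.2, hr.2.2]
  obtain ⟨L₂, hL₂, hdom⟩ := exists_dominant C w₀
  set m := C.nWordElt F L₂ with hm
  have hfeas : ∀ u ∈ U, (g * b * m)⁻¹ * u * (g * b * m) ∈ spanGroup D F (csA C a (mv C w₀ L₂)) := by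
    intro u hu
    have hle : spanGroup D F (csA C a w₀) ≤
        (spanGroup D F (csA C a (mv C w₀ L₂))).comap (MulAut.conj m⁻¹).toMonoidHom := by
      refine C.span_le fun r hr t => ?_
      have hL₂' : ∀ i ∈ L₂.reverse, i < D.rank := fun i hi => hL₂ i (List.mem_reverse.mp hi)
      have hq := C.act_lt hL₂' hr.1.1
      obtain ⟨c, hc, ec⟩ := C.nWordElt_conj_xu (F := F) hL₂ hq
      rw [act_reverse_right C hL₂ hr.1.1] at ec
      show m⁻¹ * C.xu r t * (m⁻¹)⁻¹ ∈ spanGroup D F (csA C a (mv C w₀ L₂))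
      have e' := ec (c⁻¹ * t)
      rw [mul_inv_cancel_left₀ hc] at e'
      rw [← e', ← hm, show m⁻¹ * (m * C.xu (act D L₂.reverse r) (c⁻¹ * t) * m⁻¹) * (m⁻¹)⁻¹ =
        C.xu (act D L₂.reverse r) (c⁻¹ * t) by group]
      have hev : a (act D L₂.reverse r) ≤ ev C (mv C w₀ L₂) (act D L₂.reverse r) := by
        rw [ev_mv C w₀ hL₂ hq, act_reverse_right C hL₂ hr.1.1, thr_act C ha hL₂' hr.1.1]
        exact hr.2
      exact C.xu_mem_span (P := csA C a (mv C w₀ L₂)) ⟨pos_of_evA C ha hdom hq hev, hev⟩ _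
    have h5 : m⁻¹ * ((g * b)⁻¹ * u * (g * b)) * (m⁻¹)⁻¹ ∈ spanGroup D F (csA C a (mv C w₀ L₂)) :=
      hle (hmid u hu)
    convert h5 using 1
    group
  have hgbm : g * b * m ∈ D.group F :=
    mul_mem (mul_mem hg (C.borel_le_group hb)) (C.monomial_le_group (C.nWordElt_mem hL₂))
  have h6 := hbx _ hdom ⟨_, hgbm, hfeas⟩
  rw [qfA_mv C ha w₀ hL₂] at h6
  have h7 := parallelogramA C ha x z
  rw [← hw₀, show qfA C a z = qfA C a x from (qfA_mv C ha y hlt').trans hqxy] at h7
  have hxz : ∀ j, z j = x j := fun j => by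
    have h8 := sq_le_qfA C ha (fun j => (x j - z j) / 2) j
    have h9 : ((x j - z j) / 2) ^ 2 ≤ 0 := by linarith
    have h10 : (x j - z j) / 2 = 0 := by
      exact pow_eq_zero_iff (two_ne_zero) |>.mp (le_antisymm h9 (sq_nonneg _))
    linarith
  have hact : ∀ r < D.nroots, ev C x (act D (L.map Fin.val) r) = ev C y r := fun r hr => by
    have h11 := ev_mv C y hlt' (C.act_lt hlt hr)
    rwa [← hzdef, funext hxz, act_reverse_left C hlt hr] at h11
  have hxy : x = y := eq_of_act (F := F) C ha hM hx hy _ L rfl hact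
  subst hxy
  refine ⟨rfl, ?_⟩
  rw [e]
  refine mul_mem (mul_mem (C.borel_le_parabolic _ hb) ?_) (C.borel_le_parabolic _ hb')
  exact mem_parabolic_of_fix C hM hx (J := {j | ∃ h : j < D.rank, x ⟨j, h⟩ = 0}) (fun i h => ⟨i.isLt, h⟩) _ n hn rfl fun r hr =>
    ⟨_, C.act_lt hlt hr, C.map_rootSubgroup (hL r hr), hact r hr⟩

end

end Cfsg.Agent.KnownA.ReeCent
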